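import Cfsg.Agent.CosetEnum.Ru.Main
import Cfsg.Prelude.Def_Sporadic
import Cfsg.Prelude.Def_Exceptional

/-!
The Rudvalis group as a permutation group of degree 4060 (owner: helper66).
-/

set_option autoImplicit false
set_option maxRecDepth 1000000

namespace Cfsg.Agent.CosetEnum.Ru

open MulAction

theorem exists_perm : ∃ φ : GR →* Equiv.Perm (Fin 4060), Function.Injective φ ∧
    (∀ x, isLet 11 x = true → ∀ i : Fin 4060, ((φ (gR x)⁻¹ i : Fin 4060) : ℕ) = act RuT.P x i) ∧
    (∀ i : Fin 4060, ∃ y : GR, φ y 0 = i) ∧ ∀ y : GR, y ∈ Cl gR 9 ↔ φ y 0 = 0 := by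
  obtain ⟨A, hA, φ, hφ, hAφ⟩ := RuT.tabOK.exists_action UR
  have hsm : ∀ (y : GR) (i : Fin RuT.P.m), y • i = φ y i := hAφ
  have hF := faith_card.1 A hA
  refine ⟨φ, ?_, ?_, ?_, ?_⟩
  · intro y z h
    apply hF
    ext i
    show ((y • i : Fin RuT.P.m) : ℕ) = ((z • i : Fin RuT.P.m) : ℕ)
    rw [hsm, hsm]
    exact congrArg (fun e : Equiv.Perm (Fin 4060) => ((e i : Fin 4060) : ℕ)) h
  · intro x hx i
    have h1 := hA x (RuT.tabOK.mem_iff.2 hx) i
    have h2 := hsm (gR x)⁻¹ i
    exact (congrArg (fun j : Fin RuT.P.m => (j : ℕ)) h2).symm.trans h1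
  · intro i
    have h1 := orbC_sound hA (subB_inv UR.good.inv RuT.tabOK.subB) le_rfl (show 0 < 4060 by norm_num) RuT.covO
    have h2 : i ∈ MulAction.orbit (ClL gR RuT.lets) (⟨0, show 0 < 4060 by norm_num⟩ : Fin RuT.P.m) := by
      rw [h1]
      exact ⟨Nat.zero_le _, i.2⟩
    obtain ⟨y, hy⟩ := h2
    refine ⟨y, ?_⟩
    have h3 : (y : GR) • (⟨0, show 0 < 4060 by norm_num⟩ : Fin RuT.P.m) = i := hy
    rw [hsm] at h3
    exact h3
  · have h4 : Cl gR 9 = @stabilizer GR (Fin RuT.P.m) _ A ⟨0, show 0 < 4060 by norm_num⟩ := by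
      have h5 : Cl gR 9 ≤ @stabilizer GR (Fin RuT.P.m) _ A ⟨0, show 0 < 4060 by norm_num⟩ := by
        rw [← subB_ClL RuT.sk]
        intro y hy
        rw [mem_stabilizer_iff]
        have hAk : Acts GR RuT.P gR RuT.letsk := hA.mono (by decide)
        have h6 := orbC_sound hAk (subB_inv UR.good.inv RuT.sk) RuT.orbs.2.1 RuT.orbs.1 RuT.orbs.2.2.1
        have h7 : y • (⟨0, show 0 < 4060 by norm_num⟩ : Fin RuT.P.m) ∈
            MulAction.orbit (ClL gR RuT.letsk) (⟨0, show 0 < 4060 by norm_num⟩ : Fin RuT.P.m) :=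
          ⟨⟨y, hy⟩, rfl⟩
        rw [h6] at h7
        apply Fin.ext
        have h8 : ((y • (⟨0, show 0 < 4060 by norm_num⟩ : Fin RuT.P.m) : Fin RuT.P.m) : ℕ) < 1 := h7.2
        show ((y • (⟨0, show 0 < 4060 by norm_num⟩ : Fin RuT.P.m) : Fin RuT.P.m) : ℕ) = 0
        omega
      have hfin := finite_GR
      apply Subgroup.eq_of_le_of_card_ge h5
      have h9 := (@stabilizer GR (Fin RuT.P.m) _ A ⟨0, show 0 < 4060 by norm_num⟩).card_mul_index
      have h10 : (@stabilizer GR (Fin RuT.P.m) _ A ⟨0, show 0 < 4060 by norm_num⟩).index = 4060 := by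
        rw [index_stabilizer]
        have h11 : MulAction.orbit GR (⟨0, show 0 < 4060 by norm_num⟩ : Fin RuT.P.m) = Set.univ := by
          rw [Set.eq_univ_iff_forall]
          intro i
          have h1 := orbC_sound hA (subB_inv UR.good.inv RuT.tabOK.subB) le_rfl (show 0 < 4060 by norm_num) RuT.covO
          have h2 : i ∈ MulAction.orbit (ClL gR RuT.lets) (⟨0, show 0 < 4060 by norm_num⟩ : Fin RuT.P.m) := by
            rw [h1]
            exact ⟨Nat.zero_le _, i.2⟩
          obtain ⟨y, hy⟩ := h2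
          exact ⟨y, hy⟩
        rw [h11, Set.ncard_univ, Nat.card_fin]
        rfl
      rw [h10, card_GR] at h9
      rw [card9]
      omega
    intro y
    rw [h4, mem_stabilizer_iff, hsm]
    rfl

/-- the Rudvalis group on 4060 points -/
noncomputable def phi : GR →* Equiv.Perm (Fin 4060) := exists_perm.choose

theorem phi_inj : Function.Injective phi := exists_perm.choose_spec.1

theorem phi_act (x : ℕ) (hx : isLet 11 x = true) (i : Fin 4060) : ((phi (gR x)⁻¹ i : Fin 4060) : ℕ) = act RuT.P x i :=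
  exists_perm.choose_spec.2.1 x hx i

theorem phi_trans (i : Fin 4060) : ∃ y : GR, phi y 0 = i := exists_perm.choose_spec.2.2.1 i

theorem phi_stab (y : GR) : y ∈ Cl gR 9 ↔ phi y 0 = 0 := exists_perm.choose_spec.2.2.2 y

/-- the isomorphism onto the permutation group -/
noncomputable def eR : GR ≃* phi.range := MonoidHom.ofInjective phi_inj

theorem card_range : Nat.card phi.range = 145926144000 := by
  rw [← Nat.card_congr eR.toEquiv, card_GR]

theorem simple_range : IsSimpleGroup phi.range := simple_equiv eR simple_GR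

theorem trans_range : IsPretransitive phi.range (Fin 4060) := by
  constructor
  intro i j
  obtain ⟨y, hy⟩ := phi_trans i
  obtain ⟨z, hz⟩ := phi_trans j
  refine ⟨⟨phi (z * y⁻¹), ⟨_, rfl⟩⟩, ?_⟩
  show phi (z * y⁻¹) i = j
  rw [map_mul, map_inv, Equiv.Perm.mul_apply, ← hy, ← Equiv.Perm.mul_apply (phi y)⁻¹, inv_mul_cancel,
    Equiv.Perm.one_apply, hz]

theorem card_stab : Nat.card (stabilizer phi.range (0 : Fin 4060)) = 35942400 := by
  have := trans_range
  have h := (stabilizer phi.range (0 : Fin 4060)).card_mul_index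
  rw [index_stabilizer_of_transitive, Nat.card_fin, card_range] at h
  omega

/-- the Tits subgroup of the point stabiliser -/
noncomputable def psiT : Cl gR 7 →* stabilizer phi.range (0 : Fin 4060) where
  toFun y := ⟨⟨phi y, ⟨_, rfl⟩⟩, (phi_stab y).1 (Cl_mono gR (by norm_num) y.2)⟩
  map_one' := by
    apply Subtype.ext
    apply Subtype.ext
    exact map_one phi
  map_mul' y z := by
    apply Subtype.ext
    apply Subtype.ext
    exact map_mul phi _ _

theorem psiT_inj : Function.Injective psiT := by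
  intro y z h
  apply Subtype.ext
  apply phi_inj
  exact congrArg (fun w : stabilizer phi.range (0 : Fin 4060) => ((w : phi.range) : Equiv.Perm (Fin 4060))) h

theorem tits_range : Cfsg.IsTits psiT.range := by
  have e : Cl gR 7 ≃* psiT.range := MonoidHom.ofInjective psiT_inj
  exact ⟨simple_equiv e simple7, by rw [← Nat.card_congr e.toEquiv, card7]⟩

end Cfsg.Agent.CosetEnum.Ru
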